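import Cfsg.Agent.S2601

set_option autoImplicit false

namespace Cfsg.Agent.ON

open Subgroup

theorem ext_range {H X : Type*} [Group H] [Group X] (N : Subgroup H) [N.Normal] (h : N.index = 2)
    (e : N ≃* X) (c : centralizer (N : Set H) = ⊥) :
    ∃ K : Subgroup (Out X), Nat.card K = 2 ∧
      Nonempty (H ≃* K.comap (QuotientGroup.mk' (Inn X))) := by
  let ψ : H →* MulAut X := (MulAut.congr e).toMonoidHom.comp MulAut.conjNormal
  have hψ : Function.Injective ψ := (MulAut.congr e).injective.comp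
    ((injective_iff_map_eq_one _).2 fun g hg => mem_bot.1 (c ▸ fun a ha => by
      have := congrArg Subtype.val (MulEquiv.congr_fun hg ⟨a, ha⟩)
      exact (mul_inv_eq_iff_eq_mul.1 this).symm))
  have hN : ∀ n : N, ψ n = MulAut.conj (e n) := fun n => MulEquiv.ext fun a => by
    obtain ⟨a, rfl⟩ := e.surjective a
    change e (MulAut.conjNormal (n : H) (e.symm (e a))) = e _ * e a * (e _)⁻¹
    rw [e.symm_apply_apply, ← map_inv, ← map_mul, ← map_mul]
    rfl
  have hI : Inn X ≤ ψ.range := by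
    rintro _ ⟨x, rfl⟩
    obtain ⟨n, rfl⟩ := e.surjective x
    exact ⟨n, hN n⟩
  have hk : ((QuotientGroup.mk' (Inn X)).comp ψ).ker = N := by
    ext g
    rw [MonoidHom.mem_ker, MonoidHom.comp_apply, QuotientGroup.mk'_apply, QuotientGroup.eq_one_iff]
    constructor
    · rintro ⟨x, hx⟩
      obtain ⟨n, rfl⟩ := e.surjective x
      rw [← hN] at hx
      exact hψ hx ▸ n.2
    · exact fun hg => ⟨_, (hN ⟨g, hg⟩).symm⟩
  refine ⟨ψ.range.map (QuotientGroup.mk' (Inn X)), ?_, ?_⟩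
  · rw [MonoidHom.map_range, ← index_ker, hk, h]
  · rw [comap_map_eq, QuotientGroup.ker_mk', sup_of_le_left hI]
    exact ⟨MonoidHom.ofInjective hψ⟩

theorem ext_card_out :
    Nat.card (Out (Matrix.ProjectiveSpecialLinearGroup (Fin 3) (ZMod 7))) = 6 := by
  have : Fact (Nat.Prime 7) := ⟨by norm_num⟩
  obtain ⟨φ, h1, -, h2⟩ := S2601.result (F := ZMod 7) (p := 7) (f := 1) (n := 3) le_rfl
    (by rw [ZMod.card, pow_one]) le_rfl
  rw [← φ.ker.card_mul_index, index_ker, MonoidHom.range_eq_top.2 h1, h2, card_top,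
    Nat.card_congr Multiplicative.toAdd, Nat.card_prod, Nat.card_zmod, Nat.card_zmod]
  norm_num

/-- the extension `L₃(7) : 2` inside the automorphism group is unique up to isomorphism -/
theorem ext_iso {H₁ H₂ : Type*} [Group H₁] [Group H₂] [Finite H₁] [Finite H₂] (N₁ : Subgroup H₁)
    (N₂ : Subgroup H₂) [N₁.Normal] [N₂.Normal] (h₁ : N₁.index = 2) (h₂ : N₂.index = 2)
    (e₁ : N₁ ≃* Matrix.ProjectiveSpecialLinearGroup (Fin 3) (ZMod 7))
    (e₂ : N₂ ≃* Matrix.ProjectiveSpecialLinearGroup (Fin 3) (ZMod 7))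
    (c₁ : Subgroup.centralizer (N₁ : Set H₁) = ⊥) (c₂ : Subgroup.centralizer (N₂ : Set H₂) = ⊥) :
    Nonempty (H₁ ≃* H₂) := by
  obtain ⟨K₁, k₁, ⟨f₁⟩⟩ := ext_range N₁ h₁ e₁ c₁
  obtain ⟨K₂, k₂, ⟨f₂⟩⟩ := ext_range N₂ h₂ e₂ c₂
  have : Finite (Out (Matrix.ProjectiveSpecialLinearGroup (Fin 3) (ZMod 7))) :=
    Nat.finite_of_card_ne_zero (by rw [ext_card_out]; norm_num)
  have hf : 2 = 2 ^ (Nat.card (Out (Matrix.ProjectiveSpecialLinearGroup (Fin 3) (ZMod 7)))).factorization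
      2 := by
    rw [ext_card_out, show 6 = 2 * 3 from rfl, Nat.factorization_mul (by norm_num) (by norm_num),
      Nat.prime_two.factorization, Nat.prime_three.factorization]
    simp
  obtain ⟨g, hg⟩ := MulAction.exists_smul_eq
    (Out (Matrix.ProjectiveSpecialLinearGroup (Fin 3) (ZMod 7))) (Sylow.ofCard K₁ (k₁.trans hf))
    (Sylow.ofCard K₂ (k₂.trans hf))
  have hg' : K₁.map (MulAut.conj g).toMonoidHom = K₂ := congrArg Sylow.toSubgroup hg
  obtain ⟨α, rfl⟩ := QuotientGroup.mk'_surjective _ g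
  refine ⟨f₁.trans ((((MulAut.conj α).subgroupMap _).trans (MulEquiv.subgroupCongr ?_)).trans
    f₂.symm)⟩
  rw [← hg']
  ext β
  rw [mem_comap, mem_map_equiv]
  exact mem_map_equiv (f := MulAut.conj α)

end Cfsg.Agent.ON
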