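import Cfsg.Agent.H58.ONP

set_option autoImplicit false
set_option Elab.async false
set_option maxRecDepth 100000
set_option exponentiation.threshold 400000

namespace Cfsg.Agent.ON

open H58 H58.ONP

theorem orb_coset {G : Type*} [Group G] (M : Model G) {H : Subgroup G} {p : ℕ} (hH : H = M.St p)
    (g : G) : (MulAction.orbit H (g : G ⧸ H)).ncard = (M.orb H (M.φ g p)).ncard := by
  rw [← MulAction.index_stabilizer, ← M.relIndex_St]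
  refine congrArg Subgroup.index (Subgroup.ext fun k => ?_)
  refine (QuotientGroup.eq (a := k.1 * g) (b := g)).trans ?_
  rw [Subgroup.mem_subgroupOf, SetLike.ext_iff.1 hH, M.mem_St, M.mem_St, map_mul, map_inv,
    Equiv.Perm.mul_apply, Equiv.Perm.inv_eq_iff_eq, map_mul, Equiv.Perm.mul_apply, eq_comm]

theorem orb_one {w s : List ℕ} {q n : ℕ} (h1 : appW ONM.nets w (Nat.pow 2 q) = Nat.pow 2 0)
    (h2 : orbEqErr ONM.nets [[1], [2], [3], [4], [5], [6]] s q 17 n = 0) :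
    ∃ q : Spor.ON ⧸ H, (MulAction.orbit H q).ncard = n :=
  ⟨(wv el w : Spor.ON), by
    rw [orb_coset M index_H.2, show M.φ (wv el w) 0 = q from M.apply_wv' h1, H_clW]
    exact M.ncard_orb_eq h2⟩

theorem orb1 : ∃ q : Spor.ON ⧸ H, (MulAction.orbit H q).ncard = 58653 :=
  orb_one (w := [7]) (q := 1) (s := [1, 2, 3, 4, 0, 1, 3, 5, 2, 3, 1, 0, 4, 2, 3, 1, 5, 2, 4, 0, 3, 1, 5, 4, 2, 0, 5, 3, 1, 2, 4, 0, 1, 3, 5, 2, 4, 1, 3, 4])
    (by decide +kernel) (by decide +kernel)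

theorem orb5 : ∃ q : Spor.ON ⧸ H, (MulAction.orbit H q).ncard = 5586 :=
  orb_one (w := [7, 3, 7]) (q := 5) (s := [1, 0, 2, 3, 1, 2, 4, 1, 5, 3, 0, 2, 4, 1, 3, 0, 4, 5, 2, 3, 1, 4, 2, 0, 1, 3, 5, 0, 2, 4, 3, 1, 4, 2, 5, 3, 2, 4, 1, 3, 2, 3, 4])
    (by decide +kernel) (by decide +kernel)

theorem orb69 : ∃ q : Spor.ON ⧸ H, (MulAction.orbit H q).ncard = 52136 :=
  orb_one (w := [7, 2, 7]) (q := 69) (s := [0, 2, 1, 3, 0, 2, 4, 1, 3, 5, 0, 2, 4, 1, 3, 5, 0, 2, 4, 5, 1, 3, 0, 2, 4, 1, 3, 5, 0, 4, 2, 5, 3, 1, 4, 2, 0, 3, 1, 5, 2, 4, 3, 1, 0, 5, 1, 4, 2, 3])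
    (by decide +kernel) (by decide +kernel)

theorem orb74 : ∃ q : Spor.ON ⧸ H, (MulAction.orbit H q).ncard = 6384 :=
  orb_one (w := [7, 4, 2, 7]) (q := 74) (s := [0, 2, 4, 3, 1, 5, 2, 4, 0, 1, 3, 5, 0, 4, 2, 5, 1, 3, 0, 2, 4, 1, 3, 0, 2, 4, 5, 3, 1, 4, 3])
    (by decide +kernel) (by decide +kernel)

/-- the four non-trivial suborbits of the O'Nan group on the cosets of `L₃(7) : 2` -/
theorem orbits : ∃ q₁ q₂ q₃ q₄ : Spor.ON ⧸ H58.ONP.H,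
    (MulAction.orbit H58.ONP.H q₁).ncard = 6384 ∧ (MulAction.orbit H58.ONP.H q₂).ncard = 5586 ∧
    (MulAction.orbit H58.ONP.H q₃).ncard = 58653 ∧ (MulAction.orbit H58.ONP.H q₄).ncard = 52136 :=
  ⟨_, _, _, _, orb74.choose_spec, orb5.choose_spec, orb1.choose_spec, orb69.choose_spec⟩

end Cfsg.Agent.ON
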